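import Cfsg.Agent.Golay.Code
import Cfsg.Agent.Golay.Octads
import Cfsg.Agent.AbstractGolay.Basic

/-!
Cosets of the length-24 code, and the punctured length-23 code.
-/

set_option autoImplicit false

namespace Cfsg.Agent.Golay23

open Cfsg
open Cfsg.Agent.Golay (ofBits enc ptEquiv ptIdx pop24 count4096)

/-- reindex words by `Fin 24` -/
noncomputable def ew : (GolayPt → ZMod 2) ≃ₗ[ZMod 2] (Fin 24 → ZMod 2) :=
  LinearEquiv.funCongrLeft (ZMod 2) (ZMod 2) ptEquiv.symm

theorem ew_apply (w : GolayPt → ZMod 2) (i : Fin 24) : ew w i = w (ptEquiv.symm i) := rfl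

theorem hammingNorm_ew (w : GolayPt → ZMod 2) : hammingNorm (ew w) = hammingNorm w := by
  unfold hammingNorm
  refine Finset.card_equiv ptEquiv.symm (fun i => ?_)
  rw [Finset.mem_filter, Finset.mem_filter]
  exact and_congr (iff_of_true (Finset.mem_univ _) (Finset.mem_univ _)) Iff.rfl

/-- the code on `Fin 24` -/
noncomputable def code24 : Submodule (ZMod 2) (Fin 24 → ZMod 2) := golayCode.map ew.toLinearMap

theorem ew_mem {w : GolayPt → ZMod 2} : ew w ∈ code24 ↔ w ∈ golayCode :=
  (Submodule.mem_map_equiv (e := ew) (p := golayCode)).trans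
    (by rw [LinearEquiv.symm_apply_apply])

theorem code24_dim : Module.finrank (ZMod 2) code24 = 12 := by
  rw [code24, LinearEquiv.finrank_map_eq, Cfsg.Agent.Golay.finrank_golayCode]

theorem code24_min : ∀ w ∈ code24, w ≠ 0 → 8 ≤ hammingNorm w := by
  intro w hw h0
  obtain ⟨x, rfl⟩ := ew.surjective w
  rw [hammingNorm_ew]
  exact Cfsg.Agent.Golay.eight_le_hammingNorm (ew_mem.1 hw) (fun e => h0 (by rw [e, map_zero]))

open Cfsg.Agent.AbstractGolay in
theorem coset_leaders (w : GolayPt → ZMod 2) :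
    (∃ v : GolayPt → ZMod 2, hammingNorm v ≤ 3 ∧
      {v : GolayPt → ZMod 2 | hammingNorm v ≤ 4 ∧ w - v ∈ golayCode} = {v}) ∨
    ({v : GolayPt → ZMod 2 | hammingNorm v ≤ 4 ∧ w - v ∈ golayCode}.ncard = 6 ∧
      (∀ v : GolayPt → ZMod 2, w - v ∈ golayCode → hammingNorm v ≤ 4 → hammingNorm v = 4) ∧
      ∀ i : GolayPt, ∃ v : GolayPt → ZMod 2, hammingNorm v = 4 ∧ w - v ∈ golayCode ∧ v i ≠ 0) := by
  set q : (Fin 24 → ZMod 2) ⧸ code24 := Submodule.Quotient.mk (ew w) with hq
  have hcl : ∀ v : GolayPt → ZMod 2, cl code24 (support₂ (ew v)) = q ↔ w - v ∈ golayCode := by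
    intro v
    rw [cl, word_support₂, hq, Submodule.Quotient.eq, ← map_sub, ew_mem]
    rw [show v - w = -(w - v) by abel, neg_mem_iff]
  have hwt : ∀ v : GolayPt → ZMod 2, (support₂ (ew v)).card = hammingNorm v := fun v =>
    hammingNorm_ew v
  have hback : ∀ a : Finset (Fin 24), support₂ (ew (ew.symm (word a))) = a := fun a => by
    rw [LinearEquiv.apply_symm_apply, support₂_word]
  have hinj : Function.Injective fun v : GolayPt → ZMod 2 => support₂ (ew v) := by
    intro v v' h
    apply ew.injective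
    simp only at h
    rw [← word_support₂ (ew v), h, word_support₂]
  rcases cl_surj_small code24_dim code24_min q with ⟨a, ha, haq, hu⟩ | ⟨F, h6, hF, h4, -, hcov⟩
  · left
    refine ⟨ew.symm (word a), by rw [← hwt, hback]; exact ha, ?_⟩
    ext v
    rw [Set.mem_ofPred_eq, Set.mem_singleton_iff]
    constructor
    · rintro ⟨h1, h2⟩
      apply hinj
      show support₂ (ew v) = support₂ (ew (ew.symm (word a)))
      rw [hback]
      exact hu _ (by rw [hwt]; exact h1) ((hcl v).2 h2)
    · rintro rfl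
      refine ⟨by rw [← hwt, hback]; omega, (hcl _).1 ?_⟩
      rw [hback]; exact haq
  · right
    have hset : (fun v : GolayPt → ZMod 2 => support₂ (ew v)) ''
        {v : GolayPt → ZMod 2 | hammingNorm v ≤ 4 ∧ w - v ∈ golayCode} = ↑F := by
      ext b
      rw [Finset.mem_coe, hF]
      constructor
      · rintro ⟨v, ⟨h1, h2⟩, rfl⟩
        exact ⟨by rw [hwt]; exact h1, (hcl v).2 h2⟩
      · rintro ⟨h1, h2⟩
        refine ⟨ew.symm (word b), ⟨by rw [← hwt, hback]; exact h1, (hcl _).1 ?_⟩, hback b⟩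
        rw [hback]; exact h2
    refine ⟨?_, ?_, ?_⟩
    · rw [← Set.ncard_image_of_injective _ hinj, hset, Set.ncard_coe_finset, h6]
    · intro v h2 h1
      rw [← hwt]
      exact h4 _ ((hF _).2 ⟨by rw [hwt]; exact h1, (hcl v).2 h2⟩)
    · intro i
      have : ptEquiv i ∈ F.biUnion id := hcov ▸ Finset.mem_univ _
      obtain ⟨b, hbF, hib⟩ := Finset.mem_biUnion.1 this
      refine ⟨ew.symm (word b), ?_, (hcl _).1 ?_, ?_⟩
      · rw [← hwt, hback]; exact h4 b hbF
      · rw [hback]; exact ((hF b).1 hbF).2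
      · have h2 : ew (ew.symm (word b)) (ptEquiv i) = 1 := by
          rw [LinearEquiv.apply_symm_apply]
          simpa [word] using hib
        rw [ew_apply, Equiv.symm_apply_apply] at h2
        rw [h2]; exact one_ne_zero

/-- the punctured code -/
def punct (w : GolayPt → ZMod 2) : ZMod 23 → ZMod 2 := fun x => w (some x)

theorem hammingNorm_punct (w : GolayPt → ZMod 2) :
    hammingNorm w = hammingNorm (punct w) + if w none ≠ 0 then 1 else 0 := by
  unfold hammingNorm
  rw [Finset.card_filter, Finset.card_filter, Fintype.sum_option]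
  exact Nat.add_comm _ _

theorem punct_inj {w w' : GolayPt → ZMod 2} (hw : w ∈ golayCode) (hw' : w' ∈ golayCode)
    (h : punct w = punct w') : w = w' := by
  by_contra hne
  have h8 := Cfsg.Agent.Golay.eight_le_hammingNorm (sub_mem hw hw') (sub_ne_zero.2 hne)
  rw [hammingNorm_punct] at h8
  have h0 : hammingNorm (punct (w - w')) = 0 := by
    rw [hammingNorm_eq_zero]
    funext x
    simp only [punct, Pi.sub_apply, Pi.zero_apply, sub_eq_zero]
    exact congrFun h x
  rw [h0] at h8
  split_ifs at h8 <;> omega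

/-- the punctured code as in the statements -/
def code23 : Set (ZMod 23 → ZMod 2) := {u | ∃ w ∈ golayCode, ∀ x : ZMod 23, u x = w (some x)}

theorem code23_eq : code23 = punct '' (golayCode : Set (GolayPt → ZMod 2)) := by
  ext u
  constructor
  · rintro ⟨w, hw, h⟩; exact ⟨w, hw, funext fun x => (h x).symm⟩
  · rintro ⟨w, hw, rfl⟩; exact ⟨w, hw, fun _ => rfl⟩

/-- weight of the punctured word of a bit mask -/
def pop23 (n : ℕ) : ℕ := bif n.testBit 23 then pop24 n - 1 else pop24 n

theorem hammingNorm_punct_ofBits (n : ℕ) : hammingNorm (punct (ofBits n)) = pop23 n := by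
  have h := hammingNorm_punct (ofBits n)
  rw [Cfsg.Agent.Golay.hammingNorm_ofBits] at h
  have hn : ofBits n none ≠ 0 ↔ n.testBit 23 = true :=
    Cfsg.Agent.Golay.ofBits_apply_ne_zero n none
  unfold pop23
  cases e : n.testBit 23
  · rw [if_neg (by rw [hn, e]; simp)] at h
    simp only [cond_false]; omega
  · rw [if_pos (hn.2 e)] at h
    simp only [cond_true]; omega

theorem code23_weight_ncard (m : ℕ) :
    {u : ZMod 23 → ZMod 2 | u ∈ code23 ∧ hammingNorm u = m}.ncard =
      count4096 fun k => Nat.beq (pop23 (enc k)) m := by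
  have h : {u : ZMod 23 → ZMod 2 | u ∈ code23 ∧ hammingNorm u = m} =
      ↑(((Finset.range 4096).filter fun k => Nat.beq (pop23 (enc k)) m = true).image
        fun k => punct (ofBits (enc k))) := by
    ext u
    simp only [code23_eq, Set.mem_image, SetLike.mem_coe, Set.mem_ofPred_eq, Finset.coe_image,
      Finset.coe_filter, Finset.mem_range, Nat.beq_eq]
    constructor
    · rintro ⟨⟨w, hw, rfl⟩, hc⟩
      obtain ⟨k, hk, rfl⟩ := (Cfsg.Agent.Golay.mem_golayCode_iff w).mp hw
      exact ⟨k, ⟨hk, by rw [← hc, hammingNorm_punct_ofBits]⟩, rfl⟩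
    · rintro ⟨k, ⟨-, hm⟩, rfl⟩
      exact ⟨⟨_, Cfsg.Agent.Golay.ofBits_enc_mem k, rfl⟩, by rw [hammingNorm_punct_ofBits, hm]⟩
  rw [h, Set.ncard_coe_finset, Finset.card_image_of_injOn, Cfsg.Agent.Golay.count4096_eq]
  intro a ha b hb e
  simp only [Finset.coe_filter, Finset.mem_range, Set.mem_ofPred_eq] at ha hb
  exact Cfsg.Agent.Golay.enc_inj ha.1 hb.1
    (punct_inj (Cfsg.Agent.Golay.ofBits_enc_mem a) (Cfsg.Agent.Golay.ofBits_enc_mem b) e)

theorem code23_ncard : code23.ncard = 4096 := by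
  rw [code23_eq, Set.ncard_image_of_injOn (fun a ha b hb h => punct_inj ha hb h)]
  exact Cfsg.Agent.Golay.card_golayCode

theorem code23_min {u : ZMod 23 → ZMod 2} (hu : u ∈ code23) (h0 : u ≠ 0) : 7 ≤ hammingNorm u := by
  rw [code23_eq] at hu
  obtain ⟨w, hw, rfl⟩ := hu
  have h8 := Cfsg.Agent.Golay.eight_le_hammingNorm hw (fun e => h0 (by rw [e]; rfl))
  rw [hammingNorm_punct] at h8
  split_ifs at h8 <;> omega

theorem weight_checks :
    count4096 (fun k => Nat.beq (pop23 (enc k)) 7) = 253 ∧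
    count4096 (fun k => Nat.beq (pop23 (enc k)) 8) = 506 ∧
    count4096 (fun k => Nat.beq (pop23 (enc k)) 11) = 1288 ∧
    count4096 (fun k => Nat.beq (pop23 (enc k)) 12) = 1288 ∧
    count4096 (fun k => Nat.beq (pop23 (enc k)) 15) = 506 ∧
    count4096 (fun k => Nat.beq (pop23 (enc k)) 16) = 253 := by
  decide +kernel

/-- the punctured code is perfect -/
theorem perfect (u : ZMod 23 → ZMod 2) : ∃! c, c ∈ code23 ∧ hammingDist u c ≤ 3 := by
  have hN : ∀ a b : ZMod 23 → ZMod 2, hammingNorm (a - b) = hammingDist a b := by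
    intro a b
    simp only [hammingNorm, hammingDist, Pi.sub_apply, ne_eq, sub_eq_zero]
  have hd : ∀ c, hammingDist u c = hammingNorm (c - u) := fun c => by
    rw [hammingDist_comm, hN]
  let w : GolayPt → ZMod 2 := fun p => p.elim 0 u
  obtain ⟨v, hv, hwv⟩ : ∃ v : GolayPt → ZMod 2, hammingNorm (punct v) ≤ 3 ∧ w - v ∈ golayCode := by
    rcases coset_leaders w with ⟨v, hv, hset⟩ | ⟨-, -, hcov⟩
    · have hm : v ∈ {v : GolayPt → ZMod 2 | hammingNorm v ≤ 4 ∧ w - v ∈ golayCode} :=
        hset.symm ▸ Set.mem_singleton v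
      refine ⟨v, ?_, hm.2⟩
      rw [hammingNorm_punct] at hv
      omega
    · obtain ⟨v, hv, hwv, hn⟩ := hcov none
      refine ⟨v, ?_, hwv⟩
      rw [hammingNorm_punct, if_pos hn] at hv
      omega
  refine ⟨punct (w - v), ⟨?_, ?_⟩, ?_⟩
  · rw [code23_eq]; exact ⟨_, hwv, rfl⟩
  · rw [hd]
    have : punct (w - v) - u = punct v := by
      funext x
      simp only [punct, w, Pi.sub_apply, Option.elim_some]
      exact (by decide : ∀ a b : ZMod 2, a - b - a = b) _ _
    rw [this]; exact hv
  · rintro c ⟨hc, hcd⟩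
    have hc0 : punct (w - v) ∈ code23 := by rw [code23_eq]; exact ⟨_, hwv, rfl⟩
    by_contra hne
    have hsub : c - punct (w - v) ∈ code23 := by
      rw [code23_eq] at hc ⊢
      obtain ⟨a, ha, rfl⟩ := hc
      exact ⟨a - (w - v), sub_mem ha hwv, rfl⟩
    have h7 := code23_min hsub (sub_ne_zero.2 hne)
    rw [hN] at h7
    have h1 := hammingDist_triangle c u (punct (w - v))
    have h2 : hammingDist u (punct (w - v)) ≤ 3 := by
      rw [hd]
      have : punct (w - v) - u = punct v := by
        funext x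
        simp only [punct, w, Pi.sub_apply, Option.elim_some]
        exact (by decide : ∀ a b : ZMod 2, a - b - a = b) _ _
      rw [this]; exact hv
    rw [hammingDist_comm] at hcd
    omega

end Cfsg.Agent.Golay23
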